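import Mathlib
import Cfsg.Agent.H50.Loc
import Cfsg.Agent.H27.AltBasis

/-! Polar lines: the case that θ is not trivial on the points commuting with a point. -/

set_option autoImplicit false

namespace Cfsg.Agent.H50

open Cfsg Module

universe u

variable {G : Type*} [Group G] {E : Set G}

theorem exists_mem_not_mem_list {α : Type*} {S : Set α} (l : List α) (h : l.length < S.ncard) :
    ∃ x ∈ S, x ∉ l := by
  classical
  by_contra hn
  push Not at hn
  have h1 : S ⊆ (l.toFinset : Set α) := fun x hx => by simpa using hn x hx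
  have h2 := Set.ncard_le_ncard h1 (Finset.finite_toSet _)
  rw [Set.ncard_coe_finset] at h2
  have := List.toFinset_card_le l
  omega

theorem ncard_modEq_fixed {α : Type*} {S : Set α} (hS : S.Finite) (f : α → α) (h1 : ∀ x ∈ S, f x ∈ S)
    (h2 : ∀ x ∈ S, f (f x) = x) : S.ncard ≡ {x | x ∈ S ∧ f x = x}.ncard [MOD 2] := by
  classical
  haveI := hS.fintype
  let g : Function.End S := fun x => ⟨f x, h1 x x.2⟩
  have hg : g ^ 2 ^ 1 = 1 := funext fun x => Subtype.ext (h2 x x.2)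
  have := Equiv.Perm.card_fixedPoints_modEq hg
  rw [← Nat.card_eq_fintype_card, ← Nat.card_eq_fintype_card, Nat.card_coe_set_eq, Nat.card_coe_set_eq,
    ← Set.ncard_image_of_injective _ Subtype.val_injective] at this
  convert this using 2
  ext x
  constructor
  · rintro ⟨hx, e⟩; exact ⟨⟨x, hx⟩, Subtype.ext e, rfl⟩
  · rintro ⟨⟨x, hx⟩, e, rfl⟩; exact ⟨hx, congrArg Subtype.val e⟩

theorem AGt.rot (hE : FS E) {x y z : G} (hx : x ∈ E) (hy : y ∈ E) (hz : z ∈ E) (h : AGt x y z) :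
    AGt y x z :=
  ⟨fun c => h.1 c.symm, h.2.2.1, h.2.1, fun c => h.2.2.2 (by
    rw [hE.br _ hy _ hz h.2.2.1] at c
    rw [hE.br _ hx _ hz h.2.1]
    exact ((commute_iconj_iff' (hE.sq _ hz)).2 c).symm)⟩

/-- a point commuting with two points of a line commutes with the third one -/
theorem FS.commute_of_conj (hE : FS E) {w x y : G} (hx : x ∈ E) (h1 : Commute w x)
    (h2 : Commute w (x * y * x)) : Commute w y := by
  have := (h1.mul_right h2).mul_right h1
  rwa [iconj_iconj (hE.sq _ hx)] at this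

theorem FS.commute_of_conj' (hE : FS E) {w x y : G} (hx : x ∈ E) (hy : y ∈ E) (hxy : ¬ Commute x y)
    (h1 : Commute w y) (h2 : Commute w (x * y * x)) : Commute w x :=
  hE.commute_of_conj hy h1 (hE.br _ hx _ hy hxy ▸ h2)

namespace Ln

theorem left {x y : G} : Ln E x y x := fun _ _ h _ => h
theorem right {x y : G} : Ln E x y y := fun _ _ _ h => h
theorem symm {x y z : G} (h : Ln E x y z) : Ln E y x z := fun w hw a b => h w hw b a
theorem trans {x y a b z : G} (h1 : Ln E x y a) (h2 : Ln E x y b) (h : Ln E a b z) : Ln E x y z :=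
  fun w hw a b => h w hw (h1 w hw a b) (h2 w hw a b)
theorem iconj {x y a b : G} (h1 : Ln E x y a) (h2 : Ln E x y b) : Ln E x y (a * b * a) :=
  fun w hw c d => ((h1 w hw c d).mul_right (h2 w hw c d)).mul_right (h1 w hw c d)
theorem conj {x y z g : G} (hg : ∀ d ∈ E, g⁻¹ * d * g ∈ E) (h : Ln E x y z) :
    Ln E (g * x * g⁻¹) (g * y * g⁻¹) (g * z * g⁻¹) := fun w hw a b =>
  ((commute_conj_iff' g).2 (h _ (hg w hw) ((commute_conj_iff' g).1 a.symm).symm
    ((commute_conj_iff' g).1 b.symm).symm).symm).symm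

end Ln

theorem FS.inv_conj (hE : FS E) {g : G} (hg : g ∈ Subgroup.closure E) : ∀ d ∈ E, g⁻¹ * d * g ∈ E :=
  fun d hd => by simpa using hE.conj_closure (inv_mem hg) d hd

theorem ln_of_th {x y z : G} (hz : Commute x z) (h : Th (Dx E x) y z) : Ln E x y z := fun w hw a b => by
  by_cases e : w = x
  · rwa [e]
  · exact ((h w ⟨hw, e, a.symm⟩).1 b.symm).symm

/-- the polar line through two points -/
def line (E : Set G) (x y : G) : Set G := {z | z ∈ E ∧ Ln E x y z}

/-- `L` is a polar line -/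
structure PL (E L : Set G) : Prop where
  sub : L ⊆ E
  comm : ∀ a ∈ L, ∀ b ∈ L, Commute a b
  two : ∃ a ∈ L, ∃ b ∈ L, a ≠ b
  eq : ∀ a ∈ L, ∀ b ∈ L, a ≠ b → L = line E a b

theorem PL.ln {L : Set G} (h : PL E L) {a b z : G} (ha : a ∈ L) (hb : b ∈ L) (hab : a ≠ b)
    (hz : z ∈ L) : Ln E a b z := (h.eq a ha b hb hab ▸ hz : z ∈ line E a b).2

theorem PL.mem {L : Set G} (h : PL E L) {a b z : G} (ha : a ∈ L) (hb : b ∈ L) (hab : a ≠ b)
    (hz : z ∈ E) (h' : Ln E a b z) : z ∈ L := h.eq a ha b hb hab ▸ (⟨hz, h'⟩ : z ∈ line E a b)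

theorem PL.all {L : Set G} (h : PL E L) {a b w : G} (ha : a ∈ L) (hb : b ∈ L) (hab : a ≠ b)
    (hw : w ∈ E) (h1 : Commute w a) (h2 : Commute w b) : ∀ z ∈ L, Commute w z :=
  fun _ hz => h.ln ha hb hab hz w hw h1 h2

/-- a point commuting with `a` but not with `b` commutes with no other point of the line -/
theorem PL.only {L : Set G} (h : PL E L) {a b w : G} (ha : a ∈ L) (hb : b ∈ L) (hw : w ∈ E)
    (h1 : Commute w a) (h2 : ¬ Commute w b) {z : G} (hz : z ∈ L) (h3 : Commute w z) : z = a := by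
  by_contra hne
  exact h2 (h.all hz ha hne hw h3 h1 b hb)

theorem PL.sw_mem {L : Set G} (h : PL E L) (hE : FS E) {c p q x : G} (hc : c ∈ E) (hp : p ∈ L)
    (hq : q ∈ L) (h1 : ¬ Commute c p) (h2 : ¬ Commute c q) (h4 : p ≠ q) (hx : x ∈ L) :
    sw c p q x ∈ L :=
  h.mem hp hq h4 (hE.sw_mem hc (h.sub hp) (h.sub hq) (h.sub hx))
    (hE.ln_sw hc (h.sub hp) (h.sub hq) h1 h2 (h.comm _ hp _ hq) h4 (h.ln hp hq h4 hx))

theorem PL.parity [Finite G] {L : Set G} (h : PL E L) (hE : FS E) {c p q : G} (hc : c ∈ E)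
    (hp : p ∈ L) (hq : q ∈ L) (h1 : ¬ Commute c p) (h2 : ¬ Commute c q) (h4 : p ≠ q) :
    L.ncard ≡ {x | x ∈ L ∧ Commute c x}.ncard [MOD 2] := by
  have := ncard_modEq_fixed (Set.toFinite L) (sw c p q) (fun x hx => h.sw_mem hE hc hp hq h1 h2 h4 hx)
    (fun x _ => hE.sw_sw hc (h.sub hp) (h.sub hq) h1 h2 (h.comm _ hp _ hq) h4 x)
  convert this using 2
  ext x
  exact and_congr_right fun hx => (Commute.symm_iff.trans (hE.sw_eq_iff hc (h.sub hp) (h.sub hq) h1 h2
    (h.comm _ hp _ hq) h4 (h.sub hx) (h.comm _ hx _ hp) (h.comm _ hx _ hq)).symm)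

theorem line_conj (hE : FS E) {g : G} (hg : g ∈ Subgroup.closure E) {x y z : G} (h : z ∈ line E x y) :
    g * z * g⁻¹ ∈ line E (g * x * g⁻¹) (g * y * g⁻¹) :=
  ⟨hE.conj_closure hg z h.1, h.2.conj (hE.inv_conj hg)⟩

namespace RP

variable [Finite G]

theorem th_of_ln (h : RP E) {x y z : G} (hx : x ∈ E) (hy : y ∈ Dx E x) (hz : z ∈ E) (hzx : z ≠ x)
    (hl : Ln E x y z) : Th (Dx E x) y z :=
  (h.cl_Dx hx).th_of_subset hy ⟨hz, hzx, hl x hx (Commute.refl x) hy.2.2⟩
    fun e he c => (hl e he.1 he.2.2.symm c.symm).symm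

theorem ln_swap (h : RP E) {x y z : G} (hx : x ∈ E) (hy : y ∈ Dx E x) (hz : z ∈ E) (hzx : z ≠ x)
    (hl : Ln E x y z) : Ln E x z y := ln_of_th hy.2.2 (h.th_of_ln hx hy hz hzx hl).symm

theorem pl (h : RP E) {x y : G} (hx : x ∈ E) (hy : y ∈ E) (hxy : Commute x y) (hne : x ≠ y) :
    PL E (line E x y) := by
  have cm : ∀ a ∈ line E x y, ∀ b ∈ line E x y, Commute a b := fun a ha b hb =>
    hb.2 a ha.1 (ha.2 x hx (Commute.refl x) hxy).symm (ha.2 y hy hxy.symm (Commute.refl y)).symm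
  have mx : x ∈ line E x y := ⟨hx, Ln.left⟩
  have my : y ∈ line E x y := ⟨hy, Ln.right⟩
  refine ⟨fun _ h => h.1, cm, ⟨x, mx, y, my, hne⟩, fun a ha b hb hab => ?_⟩
  have key : Ln E a b x ∧ Ln E a b y := by
    by_cases e : a = x
    · subst e
      exact ⟨Ln.left, h.ln_swap hx ⟨hy, hne.symm, hxy⟩ hb.1 hab.symm hb.2⟩
    · have h1 : Ln E x a y := h.ln_swap hx ⟨hy, hne.symm, hxy⟩ ha.1 e ha.2
      have h2 : Ln E a b x := h.ln_swap ha.1 ⟨hx, Ne.symm e, cm _ ha _ mx⟩ hb.1 hab.symm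
        (Ln.trans Ln.right h1.symm hb.2)
      exact ⟨h2, Ln.trans h2 Ln.left h1⟩
  ext z
  exact ⟨fun hz => ⟨hz.1, key.1.trans key.2 hz.2⟩, fun hz => ⟨hz.1, ha.2.trans hb.2 hz.2⟩⟩

theorem ncard_pl (h : RP E) {L M : Set G} (hL : PL E L) (hM : PL E M) : L.ncard = M.ncard := by
  have key : ∀ {L M : Set G}, PL E L → PL E M → L.ncard ≤ M.ncard := fun {L M} hL hM => by
    obtain ⟨a, ha, b, hb, hab⟩ := hL.two
    obtain ⟨a', ha', b', hb', hab'⟩ := hM.two
    obtain ⟨g, hg, e1, e2⟩ := h.trans_edge (hL.sub ha) ⟨hL.sub hb, hab.symm, hL.comm _ ha _ hb⟩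
      (hM.sub ha') ⟨hM.sub hb', hab'.symm, hM.comm _ ha' _ hb'⟩
    rw [hL.eq a ha b hb hab, hM.eq a' ha' b' hb' hab', ← e1, ← e2]
    exact ncard_conj_le g fun x hx => line_conj h.fs hg hx
  exact le_antisymm (key hL hM) (key hM hL)

end RP

/-- a primitive set all of whose polar lines have at least three points -/
structure Pol (E : Set G) : Prop extends RP E where
  three : ∀ L, PL E L → 3 ≤ L.ncard

theorem RP.pol [Finite G] (h : RP E) (h0 : ∃ d ∈ E, ¬ ThT (Dx E d)) : Pol E := by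
  obtain ⟨d, hd, h0⟩ := h0
  simp only [ThT, not_forall] at h0
  obtain ⟨a, ha, b, hb, hab, hne⟩ := h0
  refine ⟨h, fun L hL => ?_⟩
  rw [h.ncard_pl hL (h.pl hd ha.1 ha.2.2 ha.2.1.symm)]
  have : ({d, a, b} : Set G) ⊆ line E d a := by
    rintro x (rfl | rfl | rfl)
    exacts [⟨hd, Ln.left⟩, ⟨ha.1, Ln.right⟩, ⟨hb.1, ln_of_th hb.2.2 hab⟩]
  rw [← Set.ncard_eq_three.2 ⟨d, a, b, ha.2.1.symm, hb.2.1.symm, hne, rfl⟩]
  exact Set.ncard_le_ncard this

namespace Pol

variable [Finite G]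

theorem odd (h : Pol E) {L : Set G} (hL : PL E L) : L.ncard % 2 = 1 := by
  have h3 := h.three L hL
  obtain ⟨e, he, -⟩ := exists_mem_not_mem_list (S := L) [] (by simp; omega)
  obtain ⟨p, hp, h1⟩ := exists_mem_not_mem_list (S := L) [e] (by simp; omega)
  obtain ⟨q, hq, h2⟩ := exists_mem_not_mem_list (S := L) [e, p] (by simp; omega)
  simp only [List.mem_cons, List.not_mem_nil, or_false, not_or] at h1 h2
  obtain ⟨c, hc, c1, c2⟩ := h.exists_sep (hL.sub he) (hL.sub hp) (Ne.symm h1)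
  have c2' : ¬ Commute c p := fun c => c2 c.symm
  have := hL.parity h.fs hc hp hq c2' (fun c' => h2.1 (hL.only he hp hc c1.symm c2' hq c')) (Ne.symm h2.2)
  have e1 : {x | x ∈ L ∧ Commute c x} = {e} :=
    Set.eq_singleton_iff_unique_mem.2 ⟨⟨he, c1.symm⟩, fun x hx => hL.only he hp hc c1.symm c2' hx.1 hx.2⟩
  rw [e1, Set.ncard_singleton] at this
  exact this

/-- one or all -/
theorem exists_commute_pl (h : Pol E) {L : Set G} (hL : PL E L) {c : G} (hc : c ∈ E) :
    ∃ z ∈ L, Commute c z := by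
  by_contra hn
  push Not at hn
  obtain ⟨p, hp, q, hq, hpq⟩ := hL.two
  have := hL.parity h.fs hc hp hq (hn p hp) (hn q hq) hpq
  have e1 : {x | x ∈ L ∧ Commute c x} = ∅ := Set.eq_empty_of_forall_notMem fun x hx => hn x hx.1 hx.2
  rw [e1, Set.ncard_empty] at this
  have := h.odd hL
  unfold Nat.ModEq at *
  omega

/-- the five points `p, q, r, s, e` of a line whose product commutes with `x` and `y` -/
theorem five (h : Pol E) {L : Set G} (hL : PL E L) {e p q r x y : G} (he : e ∈ L) (hp : p ∈ L)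
    (hq : q ∈ L) (hr : r ∈ L) (hx : x ∈ E) (hy : y ∈ E) (hqe : q ≠ e) (hre : r ≠ e) (hpq : p ≠ q)
    (hpr : p ≠ r) (hqr : q ≠ r) (hye : Commute y e) (hyp : ¬ Commute y p) (hxp : Commute x p)
    (hxe : ¬ Commute x e) (hxy : Commute y x) :
    Commute x (p * q * r * sw y p q r * e) ∧ Commute y (p * q * r * sw y p q r * e) := by
  have hE := h.fs
  have ny : ∀ z ∈ L, z ≠ e → ¬ Commute y z := fun z hz hne c => hne (hL.only he hp hy hye hyp hz c)
  have nx : ∀ z ∈ L, z ≠ p → ¬ Commute x z := fun z hz hne c => hne (hL.only hp he hx hxp hxe hz c)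
  have hs := hL.sw_mem hE hy hp hq hyp (ny q hq hqe) hpq hr
  have l1 := hE.leaf hy (hL.sub hp) (hL.sub hq) (hL.sub hr) hyp (ny q hq hqe) (ny r hr hre)
    (hL.comm _ hp _ hq) hpq (hL.comm _ hp _ hr) hpr (hL.comm _ hq _ hr) hqr
  have l2 := hE.leaf_commute hy (hL.sub hp) (hL.sub hq) (hL.sub hr) hyp (ny q hq hqe) (ny r hr hre)
    (hL.comm _ hp _ hq) hpq (hL.comm _ hp _ hr) hpr (hL.comm _ hq _ hr) hqr
  generalize sw y p q r = s at *
  refine ⟨?_, l2.mul_right hye⟩
  obtain ⟨-, -, -, hsp, hsq, hsr, -, -⟩ := l1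
  have hs' := hL.sw_mem hE hx hq hr (nx q hq hpq.symm) (nx r hr hpr.symm) hqr hs
  have l3 := hE.leaf hx (hL.sub hq) (hL.sub hr) (hL.sub hs) (nx q hq hpq.symm) (nx r hr hpr.symm)
    (nx s hs hsp) (hL.comm _ hq _ hr) hqr (hL.comm _ hq _ hs) hsq.symm (hL.comm _ hr _ hs) hsr.symm
  have l4 := hE.leaf_commute hx (hL.sub hq) (hL.sub hr) (hL.sub hs) (nx q hq hpq.symm) (nx r hr hpr.symm)
    (nx s hs hsp) (hL.comm _ hq _ hr) hqr (hL.comm _ hq _ hs) hsq.symm (hL.comm _ hr _ hs) hsr.symm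
  generalize sw x q r s = t at *
  have k : Commute y (t * x * t) := by
    have := (l2.inv_right.mul_right hxy).mul_right l2
    rw [l3.2.2.2.2.2.2.2]
    have e2 : (p * q * r * s)⁻¹ * x * (p * q * r * s) = s * (r * (q * x * q) * r) * s := by
      simp only [mul_inv_rev, inv_eq_of_mul_self (hE.sq _ (hL.sub hp)), inv_eq_of_mul_self (hE.sq _ (hL.sub hq)),
        inv_eq_of_mul_self (hE.sq _ (hL.sub hr)), inv_eq_of_mul_self (hE.sq _ (hL.sub hs))]
      conv_rhs => rw [← (commute_iff_conj_eq (hE.sq _ (hL.sub hp))).1 hxp.symm]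
      group
    rwa [e2] at this
  have hte : t = e := hL.only he hp hy hye hyp hs'
    (hE.commute_of_conj' (hL.sub hs') hx (fun c => l3.2.2.2.2.2.2.1 c.symm) hxy k)
  subst hte
  have := hxp.mul_right l4
  simpa only [mul_assoc] using this

theorem exists_pair (h : Pol E) {L : Set G} (hL : PL E L) {e p : G} (he : e ∈ L) (hp : p ∈ L)
    {y : G} (hy : y ∈ E) (hyp : ¬ Commute y p) (hpe : p ≠ e) :
    ∃ x ∈ E, Commute x p ∧ ¬ Commute x e ∧ Commute y x := by
  obtain ⟨x', hx', c1, c2⟩ := h.exists_sep (hL.sub hp) (hL.sub he) hpe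
  have hne : p ≠ x' := fun e' => c2 (e' ▸ hL.comm _ he _ hp)
  have hN := h.pl (hL.sub hp) hx' c1 hne
  obtain ⟨x, hx, c3⟩ := h.exists_commute_pl hN hy
  have mp : p ∈ line E p x' := ⟨hL.sub hp, Ln.left⟩
  refine ⟨x, hx.1, hN.comm _ hx _ mp, fun c => c2 ?_, c3⟩
  exact hN.all hx mp (fun e' => hyp (e' ▸ c3)) (hL.sub he) c.symm (hL.comm _ he _ hp) x' ⟨hx', Ln.right⟩

theorem le_five (h : Pol E) {L : Set G} (hL : PL E L) : L.ncard ≤ 5 := by
  by_contra hn
  have hE := h.fs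
  obtain ⟨e, he, -⟩ := exists_mem_not_mem_list (S := L) [] (by simp; omega)
  obtain ⟨p, hp, h1⟩ := exists_mem_not_mem_list (S := L) [e] (by simp; omega)
  obtain ⟨q, hq, h2⟩ := exists_mem_not_mem_list (S := L) [e, p] (by simp; omega)
  obtain ⟨r, hr, h3⟩ := exists_mem_not_mem_list (S := L) [e, p, q] (by simp; omega)
  simp only [List.mem_cons, List.not_mem_nil, or_false, not_or] at h1 h2 h3
  obtain ⟨y, hy, c1, c2⟩ := h.exists_sep (hL.sub he) (hL.sub hp) (Ne.symm h1)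
  have hyp : ¬ Commute y p := fun c => c2 c.symm
  obtain ⟨x, hx, hxp, hxe, hyx⟩ := h.exists_pair hL he hp hy hyp h1
  obtain ⟨k1, k2⟩ := h.five hL he hp hq hr hx hy h2.1 h3.1 (Ne.symm h2.2) (Ne.symm h3.2.1)
    (Ne.symm h3.2.2) c1.symm hyp hxp hxe hyx
  have ny : ∀ z ∈ L, z ≠ e → ¬ Commute y z := fun z hz hne c => hne (hL.only he hp hy c1.symm hyp hz c)
  have hs := hL.sw_mem hE hy hp hq hyp (ny q hq h2.1) (Ne.symm h2.2) hr
  have hse : sw y p q r ≠ e := fun e' => (hE.leaf hy (hL.sub hp) (hL.sub hq) (hL.sub hr) hyp (ny q hq h2.1)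
    (ny r hr h3.1) (hL.comm _ hp _ hq) (Ne.symm h2.2) (hL.comm _ hp _ hr) (Ne.symm h3.2.1)
    (hL.comm _ hq _ hr) (Ne.symm h3.2.2)).2.2.2.2.2.2.1 (e' ▸ c1.symm)
  generalize sw y p q r = s at *
  obtain ⟨f, hf, h4⟩ := exists_mem_not_mem_list (S := L) [e, p, q, r, s] (by simp; omega)
  simp only [List.mem_cons, List.not_mem_nil, or_false, not_or] at h4
  have hxy : x ≠ y := fun e' => hyp (e' ▸ hxp)
  have hN := h.pl hx hy hyx.symm hxy
  have mx : x ∈ line E x y := ⟨hx, Ln.left⟩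
  have my : y ∈ line E x y := ⟨hy, Ln.right⟩
  obtain ⟨w, hw, hfw⟩ := h.exists_commute_pl hN (hL.sub hf)
  have hxf : ¬ Commute f x := fun c => h4.2.1 (hL.only hp he hx hxp hxe hf c.symm)
  have hρ : p * q * r * s * e ∈ Subgroup.closure E := by
    refine mul_mem (mul_mem (mul_mem (mul_mem ?_ ?_) ?_) ?_) ?_ <;>
      exact Subgroup.subset_closure (hL.sub ‹_›)
  have hfρ : Commute f (p * q * r * s * e) :=
    ((((hL.comm _ hf _ hp).mul_right (hL.comm _ hf _ hq)).mul_right (hL.comm _ hf _ hr)).mul_right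
      (hL.comm _ hf _ hs)).mul_right (hL.comm _ hf _ he)
  have hwρ : Commute w (p * q * r * s * e) := by
    generalize p * q * r * s * e = ρ at *
    have m := line_conj hE hρ hw
    rw [conj_eq_iff_commute.2 k1.symm, conj_eq_iff_commute.2 k2.symm] at m
    refine (conj_eq_iff_commute.1 (hN.only hw mx (hL.sub hf) hfw hxf m ?_)).symm
    exact (hfρ.mul_right hfw).mul_right hfρ.inv_right
  have nw : ∀ z ∈ L, z ≠ f → ¬ Commute w z := fun z hz hne c => hyp (hN.all hw mx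
    (fun e' => hxf (e' ▸ hfw)) (hL.sub hp) (hL.all hz hf hne hw.1 c hfw.symm p hp).symm hxp.symm y my).symm
  have hs' := hL.sw_mem hE hw.1 hp hq (nw p hp (Ne.symm h4.2.1)) (nw q hq (Ne.symm h4.2.2.1))
    (Ne.symm h2.2) hr
  have l2 := hE.leaf_commute hw.1 (hL.sub hp) (hL.sub hq) (hL.sub hr) (nw p hp (Ne.symm h4.2.1))
    (nw q hq (Ne.symm h4.2.2.1)) (nw r hr (Ne.symm h4.2.2.2.1)) (hL.comm _ hp _ hq) (Ne.symm h2.2)
    (hL.comm _ hp _ hr) (Ne.symm h3.2.1) (hL.comm _ hq _ hr) (Ne.symm h3.2.2)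
  generalize sw w p q r = t at *
  have k : Commute w (t * s * e) := by
    have := l2.inv_right.mul_right hwρ
    have e2 : (p * q * r * t)⁻¹ * (p * q * r * s * e) = t⁻¹ * s * e := by group
    rwa [e2, inv_eq_of_mul_self (hE.sq _ (hL.sub hs'))] at this
  by_cases e1 : t = s
  · rw [e1, hE.sq _ (hL.sub hs), one_mul] at k
    exact nw e he (Ne.symm h4.1) k
  by_cases e2 : t = e
  · rw [e2, (commute_iff_conj_eq (hE.sq _ (hL.sub he))).1 (hL.comm _ he _ hs)] at k
    exact nw s hs (Ne.symm h4.2.2.2.2) k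
  exact nw s hs (Ne.symm h4.2.2.2.2) (tt_commute_mul_mul hE.tt (hL.sub hs') (hL.sub hs) (hL.sub he) hw.1
    e1 e2 hse (hL.comm _ hs' _ hs) (hL.comm _ hs' _ he) (hL.comm _ hs _ he) k).2.1

theorem three_or_five (h : Pol E) : (∀ L, PL E L → L.ncard = 3) ∨ (∀ L, PL E L → L.ncard = 5) := by
  by_contra hn
  push Not at hn
  obtain ⟨⟨L, hL, h1⟩, M, hM, h2⟩ := hn
  have := h.ncard_pl hL hM
  have := h.three L hL
  have := h.le_five hL
  have := h.odd hL
  omega

theorem eq_of_ln_commute (h : Pol E) {d a z : G} (hd : d ∈ E) (ha : a ∈ E) (hda : ¬ Commute d a)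
    (hz : z ∈ E) (hl : Ln E d a z) (hdz : Commute d z) : z = d := by
  by_contra hne
  obtain ⟨x, hx, y, hy, hxy⟩ := h.two_Dx hd
  obtain ⟨u, hu, hzu⟩ := (h.cl_Dx hd).exists_not_commute hx hy (ne_of_not_commute hxy) ⟨hz, hne, hdz⟩
  have hN := h.pl hd hu.1 hu.2.2 hu.2.1.symm
  obtain ⟨e, he, c⟩ := h.exists_commute_pl hN ha
  have md : d ∈ line E d u := ⟨hd, Ln.left⟩
  exact hzu (hN.all md he (fun e' => hda (e' ▸ c.symm)) hz hdz.symm
    (hl e he.1 (hN.comm _ he _ md) c.symm).symm u ⟨hu.1, Ln.right⟩)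

end Pol

theorem RP.ln_of_not_commute [Finite G] (h : RP E) {d a x y : G} (hd : d ∈ E) (ha : a ∈ E)
    (hda : ¬ Commute d a) (hx : x ∈ E) (hy : y ∈ E) (hxy : ¬ Commute x y) (h1 : Ln E d a x)
    (h2 : Ln E d a y) : Ln E x y d ∧ Ln E x y a := by
  obtain ⟨g, hg, e1, e2⟩ := h.trans_nedge hx hy hxy hd ha hda
  have k := Set.eq_of_subset_of_ncard_le (s := {w | w ∈ E ∧ Commute w d ∧ Commute w a})
    (t := {w | w ∈ E ∧ Commute w x ∧ Commute w y})
    (fun w hw => ⟨hw.1, h1 w hw.1 hw.2.1 hw.2.2, h2 w hw.1 hw.2.1 hw.2.2⟩)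
    (ncard_conj_le g fun w hw => ⟨h.fs.conj_closure hg w hw.1, e1 ▸ (commute_conj_iff g).2 hw.2.1,
      e2 ▸ (commute_conj_iff g).2 hw.2.2⟩)
  exact ⟨fun w hw a b => ((Set.ext_iff.1 k w).2 ⟨hw, a, b⟩).2.1,
    fun w hw a b => ((Set.ext_iff.1 k w).2 ⟨hw, a, b⟩).2.2⟩

namespace Pol

variable [Finite G]

theorem eq_of_ln_ln (h : Pol E) {d a x y : G} (hd : d ∈ E) (ha : a ∈ E) (hda : ¬ Commute d a)
    (hx : x ∈ E) (hy : y ∈ E) (h1 : Ln E d a x) (h2 : Ln E d a y) (hxy : Commute x y) : y = x := by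
  by_cases e : x = d
  · subst e; exact h.eq_of_ln_commute hd ha hda hy h2 hxy
  have hxd : ¬ Commute x d := fun c => e (h.eq_of_ln_commute hd ha hda hx h1 c.symm)
  exact h.eq_of_ln_commute hx hd hxd hy
    (Ln.trans Ln.right (h.ln_of_not_commute hd ha hda hx hd hxd h1 Ln.left).2 h2) hxy

theorem inj (h : Pol E) : Inj E := by
  intro d hd a ha hda z hz hl
  by_contra hn
  push Not at hn
  have hE := h.fs
  obtain ⟨e, he, hae⟩ := h.exists_common_perp hd ha hda
  have hM := h.pl hd he.1 he.2.2 he.2.1.symm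
  have md : d ∈ line E d e := ⟨hd, Ln.left⟩
  have me : e ∈ line E d e := ⟨he.1, Ln.right⟩
  obtain ⟨y, hy, h1⟩ := exists_mem_not_mem_list (S := line E d e) [d, e]
    (by have := h.three _ hM; simp; omega)
  simp only [List.mem_cons, List.not_mem_nil, or_false, not_or] at h1
  have hya : ¬ Commute y a := fun c => h1.2 (hM.only me md ha hae (fun c => hda c.symm) hy c.symm)
  obtain ⟨p, hp, c1, c2, c3⟩ : ∃ p ∈ E, Commute p y ∧ Commute p a ∧ ¬ Commute p d := by
    by_contra hc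
    push Not at hc
    exact h1.1 (h.eq_of_ln_commute hd ha hda hy.1
      (h.ln_of_not_commute hy.1 ha hya hd ha hda hc Ln.right).1 (hM.comm _ md _ hy))
  have hN := h.pl hy.1 hp c1.symm fun e' => hya (e' ▸ c2)
  have nc : ∀ x ∈ E, ∀ y ∈ E, Ln E d a x → Ln E d a y → y ≠ x → ¬ Commute x y :=
    fun x hx y hy h1 h2 hne c => hne (h.eq_of_ln_ln hd ha hda hx hy h1 h2 c)
  obtain ⟨Q, hQ, inj, -, -, -, -, gen⟩ := exists_ag hE hd hz ha (nc d hd z hz Ln.left hl hn.1) hda
    (nc z hz a ha hl Ln.right (Ne.symm hn.2.1))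
    (nc z hz _ (hE.conj _ hd _ ha) hl (Ln.left.iconj Ln.right) (Ne.symm hn.2.2))
  have hT := gen {x | Ln E d a x} Ln.left hl Ln.right fun x hx y hy => Ln.iconj hx hy
  choose n hn1 hn2 using fun v => h.exists_commute_pl hN (hQ v)
  have hinj : Function.Injective n := fun v w e' => by
    by_contra hne
    have k := h.ln_of_not_commute hd ha hda (hQ v) (hQ w)
      (nc _ (hQ v) _ (hQ w) (hT v) (hT w) (inj.ne (Ne.symm hne))) (hT v) (hT w)
    have k1 := k.1 _ (hn1 v).1 (hn2 v).symm (e' ▸ (hn2 w).symm)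
    have k2 := k.2 _ (hn1 v).1 (hn2 v).symm (e' ▸ (hn2 w).symm)
    rw [hN.only (a := y) (b := p) ⟨hy.1, Ln.left⟩ ⟨hp, Ln.right⟩ hd (hM.comm _ md _ hy)
      (fun c => c3 c.symm) (hn1 v) k1.symm] at k2
    exact hya k2
  have k := Set.ncard_le_ncard (s := Set.range n) (t := line E y p) (by rintro _ ⟨v, rfl⟩; exact hn1 v)
  rw [← Set.image_univ, Set.ncard_image_of_injective _ hinj, Set.ncard_univ] at k
  have := h.le_five hN
  simp at k
  omega

theorem noAG (h : Pol E) (h3 : ∀ L, PL E L → L.ncard = 3) : NoAG E := by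
  intro d hd x hx y hy hA
  have hE := h.fs
  have hA' := hA.rot hE hd hx hy
  have : Ln E d x y := by
    intro w hw c1 c2
    by_contra c3
    have hne : d ≠ w := fun e => hA.1 (e ▸ c2)
    have hN := h.pl hd hw c1.symm hne
    have md : d ∈ line E d w := ⟨hd, Ln.left⟩
    have mw : w ∈ line E d w := ⟨hw, Ln.right⟩
    obtain ⟨u, hu, c4⟩ := h.exists_commute_pl hN hy
    obtain ⟨v, hv, c5⟩ := h.exists_commute_pl hN (hE.conj _ hx _ hy)
    have hud : u ≠ d := fun e => hA.2.1 (e ▸ c4.symm)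
    have huw : u ≠ w := fun e => c3 (e ▸ c4.symm)
    have hvd : v ≠ d := fun e => hA'.2.2.2 (e ▸ c5.symm)
    have hvw : v ≠ w := fun e => c3 (hE.commute_of_conj hx c2 (e ▸ c5.symm))
    have hvu : v ≠ u := fun e => huw (hN.only mw md hx c2.symm (fun c => hA.1 c.symm) hu
      (hE.commute_of_conj' hx hy hA.2.2.1 c4.symm (e ▸ c5.symm)).symm)
    have k := Set.ncard_le_ncard (s := {v, u, w, d}) (t := line E d w) (by
      rintro _ (rfl | rfl | rfl | rfl) <;> assumption)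
    rw [h3 _ hN, Set.ncard_insert_of_notMem (by simp [*]), Set.ncard_insert_of_notMem (by simp [*]),
      Set.ncard_pair hne.symm] at k
    omega
  rcases h.inj d hd x hx hA.1 y hy this with e | e | e
  · exact hA.2.1 (e ▸ Commute.refl _)
  · exact hA.2.2.1 (e ▸ Commute.refl _)
  · exact hA.2.2.2 (by rw [e, iconj_iconj (hE.sq _ hd)])

end Pol

/-- a parametrisation from coordinates of the points -/
theorem Param.of_coord {V : Type*} {X : Set V} {op : V → V → V} {r : V → V → Prop} (c : G → V)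
    (symm : ∀ v w, r v w → r w v) (trans : ∀ u v w, r u v → r v w → r u w)
    (congr : ∀ v v' w w', r v v' → r w w' → r (op v w) (op v' w'))
    (op_mem : ∀ v ∈ X, ∀ w ∈ X, op v w ∈ X) (mem : ∀ x ∈ E, c x ∈ X)
    (surj : ∀ v ∈ X, ∃ x ∈ E, r (c x) v) (inj : ∀ x ∈ E, ∀ y ∈ E, r (c x) (c y) → x = y)
    (cmem : ∀ x ∈ E, ∀ y ∈ E, x * y * x ∈ E)
    (conj : ∀ x ∈ E, ∀ y ∈ E, r (c (x * y * x)) (op (c x) (c y))) :
    ∃ p : V → G, Param E X op r p ∧ ∀ x ∈ E, p (c x) = x := by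
  classical
  choose! p h1 h2 using surj
  have k : ∀ x ∈ E, p (c x) = x := fun x hx => inj _ (h1 _ (mem x hx)) _ hx (h2 _ (mem x hx))
  refine ⟨p, ⟨h1, fun x hx => ⟨c x, mem x hx, k x hx⟩, fun v hv w hw => ⟨fun e => ?_, fun e => ?_⟩,
    fun v hv w hw => ?_, op_mem⟩, k⟩
  · exact trans _ _ _ (symm _ _ (h2 v hv)) (e ▸ h2 w hw)
  · exact inj _ (h1 v hv) _ (h1 w hw) (trans _ _ _ (h2 v hv) (trans _ _ _ e (symm _ _ (h2 w hw))))
  · exact inj _ (cmem _ (h1 v hv) _ (h1 w hw)) _ (h1 _ (op_mem v hv w hw))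
      (trans _ _ _ (conj _ (h1 v hv) _ (h1 w hw)) (trans _ _ _ (congr _ _ _ _ (h2 v hv) (h2 w hw))
        (symm _ _ (h2 _ (op_mem v hv w hw)))))

theorem ext_of_span {F V : Type*} [Field F] [AddCommGroup V] [Module F V] {σ : F →+* F}
    {B : V →ₛₗ[σ] V →ₗ[F] F} (hs : ∀ u v, σ (B u v) = B v u) (hB : ∀ u, (∀ v, B u v = 0) → u = 0)
    {S : Set V} (hS : Submodule.span F S = ⊤) {v w : V} (h : ∀ u ∈ S, B u v = B u w) : v = w := by
  refine sub_eq_zero.1 (hB _ fun u => ?_)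
  have : B u (v - w) = 0 := by
    induction (hS ▸ Submodule.mem_top : u ∈ Submodule.span F S) using Submodule.span_induction with
    | mem x hx => rw [map_sub, h x hx, sub_self]
    | zero => simp
    | add x y _ _ h1 h2 => rw [map_add, LinearMap.add_apply, h1, h2, add_zero]
    | smul a x _ h1 => rw [map_smulₛₗ, LinearMap.smul_apply, h1, smul_zero]
  rw [← hs, this, map_zero]

open Classical in
/-- the symplectic space of a Fischer set without affine planes -/
theorem exists_gram_two [Finite G] (hE : FS E) (hA : NoAG E) :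
    ∃ (n : ℕ) (B : LinearMap.BilinForm (ZMod 2) (Fin n → ZMod 2)) (c : G → Fin n → ZMod 2),
      B.IsAlt ∧ B.Nondegenerate ∧ (∀ u v, B u v = B v u) ∧ Submodule.span (ZMod 2) (c '' E) = ⊤ ∧
      (∀ v w, (∀ x ∈ E, B (c x) v = B (c x) w) → v = w) ∧
      (∀ x ∈ E, ∀ y ∈ E, B (c x) (c y) = if Commute x y then 0 else 1) ∧
      ∀ x ∈ E, ∀ y ∈ E, c (x * y * x) = c y + B (c x) (c y) • c x := by
  obtain ⟨n, B, c, h1, h2, h3, h4⟩ := exists_gram (RingHom.id (ZMod 2)) (fun _ => rfl) (Set.toFinite E)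
    (fun x y => if Commute x y then 0 else 1) fun x _ y _ => by simp only [RingHom.id_apply, Commute.symm_iff (a := x)]
  have ext : ∀ v w, (∀ x ∈ E, B (c x) v = B (c x) w) → v = w := fun v w h =>
    ext_of_span h1 h2 h3 (by rintro _ ⟨x, hx, rfl⟩; exact h x hx)
  refine ⟨n, B, c, fun u => ?_, ⟨h2, fun u hu => h2 u fun v => (h1 v u).symm.trans (hu v)⟩, h1, h3, ext, h4,
    fun x hx y hy => ext _ _ fun g hg => ?_⟩
  · induction (h3 ▸ Submodule.mem_top : u ∈ Submodule.span (ZMod 2) (c '' E)) using Submodule.span_induction with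
    | mem x hx => obtain ⟨x, hx, rfl⟩ := hx; simp [h4 x hx x hx]
    | zero => simp
    | add x y _ _ a b =>
      have := h1 x y
      simp only [RingHom.id_apply] at this
      simp only [map_add, LinearMap.add_apply, a, b, this]
      generalize B y x = t; revert t; decide
    | smul a x _ b => simp [b]
  · rw [map_add, map_smul, h4 _ hg _ (hE.conj _ hx _ hy), h4 _ hg _ hy, h4 _ hx _ hy, h4 _ hg _ hx]
    by_cases a : Commute x y
    · simp [a, (commute_iff_conj_eq (hE.sq _ hx)).1 a]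
    by_cases b : Commute g x <;> by_cases d : Commute g y
    · simp [b, d, (b.mul_right d).mul_right b]
    · simp [a, b, d, mt (hE.commute_of_conj hx b) d]
    · simp [a, b, d, mt (hE.commute_of_conj' hx hy a d) b]
    · have : Commute g (x * y * x) := by
        by_contra e; exact hA x hx g hg y hy ⟨fun c => b c.symm, a, d, e⟩
      simp only [a, b, d, this, if_true, if_false]; decide

theorem Pol.three_of_noAG [Finite G] (h : Pol E) (hA : NoAG E) {L : Set G} (hL : PL E L) :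
    L.ncard = 3 := by
  classical
  by_contra hn
  have h5 := h.three_or_five.resolve_left (fun h3 => hn (h3 L hL)) L hL
  obtain ⟨n, B, c, -, -, -, -, -, h4, h6⟩ := exists_gram_two h.fs hA
  have hE := h.fs
  obtain ⟨e, he, -⟩ := exists_mem_not_mem_list (S := L) [] (by simp; omega)
  obtain ⟨p, hp, h1⟩ := exists_mem_not_mem_list (S := L) [e] (by simp; omega)
  obtain ⟨q, hq, h2⟩ := exists_mem_not_mem_list (S := L) [e, p] (by simp; omega)
  obtain ⟨r, hr, h3⟩ := exists_mem_not_mem_list (S := L) [e, p, q] (by simp; omega)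
  simp only [List.mem_cons, List.not_mem_nil, or_false, not_or] at h1 h2 h3
  obtain ⟨y, hy, c1, c2⟩ := h.exists_sep (hL.sub he) (hL.sub hp) (Ne.symm h1)
  obtain ⟨w, hw, c3, c4⟩ := h.exists_sep (hL.sub hp) (hL.sub he) h1
  have ny : ∀ z ∈ L, z ≠ e → ¬ Commute y z := fun z hz hne c =>
    hne (hL.only he hp hy c1.symm (fun c => c2 c.symm) hz c)
  have nw : ∀ z ∈ L, z ≠ p → ¬ Commute w z := fun z hz hne c =>
    hne (hL.only hp he hw c3.symm (fun c => c4 c.symm) hz c)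
  have hs := hL.sw_mem hE hy hp hq (ny p hp h1) (ny q hq h2.1) (Ne.symm h2.2) hr
  have l1 := hE.leaf hy (hL.sub hp) (hL.sub hq) (hL.sub hr) (ny p hp h1) (ny q hq h2.1) (ny r hr h3.1)
    (hL.comm _ hp _ hq) (Ne.symm h2.2) (hL.comm _ hp _ hr) (Ne.symm h3.2.1) (hL.comm _ hq _ hr)
    (Ne.symm h3.2.2)
  have l2 := congrArg (fun x => B (c w) (c x)) l1.2.2.2.2.2.2.2
  have a1 := l1.2.2.2.2.2.2.1
  have a2 := nw _ hs l1.2.2.2.1
  generalize sw y p q r = s at *
  have m1 := hE.conj _ (hL.sub hp) _ hy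
  have m2 := hE.conj _ (hL.sub hq) _ m1
  have b : ∀ x ∈ L, ∀ y ∈ L, B (c x) (c y) = 0 := fun x hx y hy => by
    rw [h4 _ (hL.sub hx) _ (hL.sub hy), if_pos (hL.comm _ hx _ hy)]
  have b1 : ∀ x ∈ L, x ≠ e → B (c x) (c y) = 1 := fun x hx hne => by
    rw [h4 _ (hL.sub hx) _ hy, if_neg fun c => ny x hx hne c.symm]
  have b2 : ∀ x ∈ L, x ≠ p → B (c w) (c x) = 1 := fun x hx hne => by
    rw [h4 _ hw _ (hL.sub hx), if_neg (nw x hx hne)]
  simp only [h6 _ (hL.sub hs) _ hy, h6 _ (hL.sub hr) _ m2, h6 _ (hL.sub hq) _ m1, h6 _ (hL.sub hp) _ hy,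
    map_add, map_smul, b _ hq _ hp, b _ hr _ hp, b _ hr _ hq, b1 p hp h1, b1 q hq h2.1, b1 r hr h3.1,
    b2 q hq h2.2, b2 r hr h3.2.1, h4 _ (hL.sub hs) _ hy, if_neg (fun c : Commute s y => a1 c.symm),
    h4 _ hw _ (hL.sub hs), if_neg a2, h4 _ hw _ (hL.sub hp), if_pos c3.symm] at l2
  revert l2
  generalize B (c w) (c y) = t
  revert t; decide

theorem Pol.isSp [Finite G] (h : Pol E) (hA : NoAG E) : ∃ n, 4 ≤ n ∧ IsSp E n := by
  classical
  obtain ⟨n, B, c, h1, h2, hs, h3, ext, h4, h6⟩ := exists_gram_two h.fs hA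
  have hE := h.fs
  have inj : ∀ x ∈ E, ∀ y ∈ E, c x = c y → x = y := fun x hx y hy e => h.th x hx y hy fun g hg => by
    have := h4 x hx g hg
    rw [e, h4 y hy g hg] at this
    by_cases a : Commute x g <;> by_cases b : Commute y g <;> simp only [a, b, if_true, if_false] at this ⊢ <;>
      exact absurd this (by decide)
  have ne0 : ∀ x ∈ E, c x ≠ 0 := fun x hx e => by
    obtain ⟨y, hy, hxy⟩ := h.exists_not_commute' hx
    have := h4 x hx y hy
    rw [e, if_neg hxy] at this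
    simp at this
  have add : ∀ x ∈ E, ∀ y ∈ E, x ≠ y → ∃ z ∈ E, c z = c x + c y := fun x hx y hy hne => by
    by_cases a : Commute x y
    · have hN := h.pl hx hy a hne
      have mx : x ∈ line E x y := ⟨hx, Ln.left⟩
      have my : y ∈ line E x y := ⟨hy, Ln.right⟩
      have h3 := h.three_of_noAG hA hN
      obtain ⟨z, hz, h1⟩ := exists_mem_not_mem_list (S := line E x y) [x, y] (by simp; omega)
      simp only [List.mem_cons, List.not_mem_nil, or_false, not_or] at h1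
      have hL : line E x y = {x, y, z} := (Set.eq_of_subset_of_ncard_le (by
        rintro _ (rfl | rfl | rfl) <;> assumption)
        (by rw [h3, Set.ncard_eq_three.2 ⟨x, y, z, hne, Ne.symm h1.1, Ne.symm h1.2, rfl⟩])).symm
      refine ⟨z, hz.1, ext _ _ fun g hg => ?_⟩
      rw [map_add, h4 _ hg _ hz.1, h4 _ hg _ hx, h4 _ hg _ hy]
      by_cases b : Commute g x <;> by_cases d : Commute g y
      · simp [b, d, hz.2 g hg b d]
      · simp [b, d, mt (hN.only mx my hg b d hz) h1.1]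
      · simp [b, d, mt (hN.only my mx hg d b hz) h1.2]
      · obtain ⟨u, hu, e⟩ := h.exists_commute_pl hN hg
        rw [hL] at hu
        rcases hu with rfl | rfl | rfl
        · exact absurd e b
        · exact absurd e d
        · simp only [b, d, e, if_true, if_false]; decide
    · exact ⟨y * x * y, hE.conj _ hy _ hx, by
        rw [h6 _ hy _ hx, h4 _ hy _ hx, if_neg fun c => a c.symm, one_smul]⟩
  have surj : ∀ v, v = 0 ∨ ∃ x ∈ E, c x = v := fun v => by
    induction (h3 ▸ Submodule.mem_top : v ∈ Submodule.span (ZMod 2) (c '' E)) using Submodule.span_induction with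
    | mem x hx => exact Or.inr hx
    | zero => exact Or.inl rfl
    | add x y _ _ a b =>
      rcases a with rfl | ⟨x, hx, rfl⟩
      · simpa using b
      rcases b with rfl | ⟨y, hy, rfl⟩
      · exact Or.inr ⟨x, hx, by simp⟩
      by_cases e : x = y
      · left; rw [e, ← two_smul (ZMod 2)]; exact zero_smul _ _
      · exact Or.inr (add x hx y hy e)
    | smul a x _ b =>
      have : a = 0 ∨ a = 1 := by revert a; decide
      rcases this with rfl | rfl
      · simp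
      · simpa using b
  obtain ⟨p, hp, -⟩ := Param.of_coord (E := E) (X := {v | v ≠ 0}) (op := fun v w => w + B v w • v) (r := Eq) c
    (fun _ _ => Eq.symm) (fun _ _ _ => Eq.trans) (fun _ _ _ _ a b => by rw [a, b])
    (fun v hv w hw => by
      obtain ⟨x, hx, rfl⟩ := (surj v).resolve_left hv
      obtain ⟨y, hy, rfl⟩ := (surj w).resolve_left hw
      change _ ≠ _
      rw [← h6 x hx y hy]; exact ne0 _ (hE.conj _ hx _ hy))
    ne0 (fun v hv => (surj v).resolve_left hv) inj hE.conj h6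
  refine ⟨n, ?_, _, inferInstance, inferInstance, inferInstance, B, by simp, h1, h2, p, hp⟩
  -- the dimension
  obtain ⟨d, hd, -⟩ := h.two
  obtain ⟨a, ha, b, hb, hab⟩ := h.two_Dx hd
  obtain ⟨x, hx, hdx⟩ := h.exists_not_commute' hd
  have li : LinearIndependent (ZMod 2) ![c a, c b, c d] := by
    rw [Fintype.linearIndependent_iff]
    intro g hg
    have e1 := congrArg (B (c a)) hg
    have e2 := congrArg (B (c b)) hg
    simp only [Fin.sum_univ_three, Matrix.cons_val_zero, Matrix.cons_val_one, Matrix.cons_val_two,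
      Matrix.head_cons, Matrix.tail_cons, map_add, map_smul, map_zero, h4 _ ha.1 _ ha.1, h4 _ ha.1 _ hb.1,
      h4 _ ha.1 _ hd, h4 _ hb.1 _ ha.1, h4 _ hb.1 _ hb.1, h4 _ hb.1 _ hd, if_pos (Commute.refl _),
      if_neg hab, if_neg (fun c : Commute b a => hab c.symm), if_pos ha.2.2.symm, if_pos hb.2.2.symm,
      smul_eq_mul, mul_zero, mul_one, zero_add, add_zero] at e1 e2 hg
    rw [e1, e2, zero_smul, zero_smul, zero_add, zero_add, smul_eq_zero] at hg
    intro i; fin_cases i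
    exacts [e2, e1, hg.resolve_right (ne0 d hd)]
  have k1 := li.fintype_card_le_finrank
  have k2 := H27.even_finrank_of_alt h2 h1
  simp only [Fintype.card_fin, finrank_fintype_fun_eq_card] at k1 k2
  obtain ⟨m, hm⟩ := k2
  omega

theorem m3b : M3bStmt.{u} := fun _ _ _ _ h hA h0 => (h.pol h0).isSp hA

end Cfsg.Agent.H50
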